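import Mathlib

/-!
Certificates for small groups of two by two matrices acting regularly.
-/

set_option autoImplicit false

namespace CfsgLib.RegularLinear.Examples

open Matrix

variable {p : ℕ}

/-- A matrix as a quadruple. -/
abbrev Q (p : ℕ) := ZMod p × ZMod p × ZMod p × ZMod p

/-- Product of quadruples. -/
def qmul (x y : Q p) : Q p :=
  (x.1 * y.1 + x.2.1 * y.2.2.1, x.1 * y.2.1 + x.2.1 * y.2.2.2,
    x.2.2.1 * y.1 + x.2.2.2 * y.2.2.1, x.2.2.1 * y.2.1 + x.2.2.2 * y.2.2.2)

/-- The unit quadruple. -/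
def qone : Q p := (1, 0, 0, 1)

/-- Determinant of `x - 1`. -/
def qfix (x : Q p) : ZMod p := (x.1 - 1) * (x.2.2.2 - 1) - x.2.1 * x.2.2.1

/-- The quadruple of a matrix. -/
def ofMat (M : Matrix (Fin 2) (Fin 2) (ZMod p)) : Q p := (M 0 0, M 0 1, M 1 0, M 1 1)

theorem ofMat_mul (M N : Matrix (Fin 2) (Fin 2) (ZMod p)) : ofMat (M * N) = qmul (ofMat M) (ofMat N) := by
  simp [ofMat, qmul, Matrix.mul_apply, Fin.sum_univ_two]

theorem ofMat_one : ofMat (1 : Matrix (Fin 2) (Fin 2) (ZMod p)) = qone := by simp [ofMat, qone]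

theorem ofMat_injective : Function.Injective (ofMat (p := p)) := by
  intro M N h
  simp only [ofMat, Prod.mk.injEq] at h
  ext i j
  fin_cases i <;> fin_cases j <;> simp [h.1, h.2.1, h.2.2.1, h.2.2.2]

variable [Fact p.Prime]

theorem qfix_eq (M : Matrix (Fin 2) (Fin 2) (ZMod p)) : qfix (ofMat M) = (M - 1).det := by
  simp [qfix, ofMat, Matrix.det_fin_two]

/-- The list is the group generated by the generators. -/
theorem closure_spec (S : Set (Matrix.GeneralLinearGroup (Fin 2) (ZMod p))) (g : List (Q p))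
    (hS : ∀ x ∈ S, ofMat (x : Matrix (Fin 2) (Fin 2) (ZMod p)) ∈ g)
    (hg : ∀ q ∈ g, ∃ x ∈ S, ofMat (x : Matrix (Fin 2) (Fin 2) (ZMod p)) = q)
    (L : List (Q p)) (par : List (ℕ × ℕ)) (h0 : L[0]? = some qone)
    (hclosed : L.all fun x => g.all fun y => decide (qmul x y ∈ L))
    (hpar : (List.range L.length).all fun i => decide (i = 0 ∨ ((par.getD i (0, 0)).1 < i ∧
      (par.getD i (0, 0)).2 < g.length ∧
      L.getD i qone = qmul (L.getD (par.getD i (0, 0)).1 qone) (g.getD (par.getD i (0, 0)).2 qone))))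
    (hnd : L.Nodup) :
    Nat.card (Subgroup.closure S) = L.length ∧
      ∀ h ∈ Subgroup.closure S, ofMat ((h : Matrix.GeneralLinearGroup (Fin 2) (ZMod p)) : Matrix (Fin 2) (Fin 2) (ZMod p)) ∈ L := by
  classical
  simp only [List.all_eq_true, decide_eq_true_eq] at hclosed hpar
  have hmem : ∀ h ∈ Subgroup.closure S,
      ofMat ((h : Matrix.GeneralLinearGroup (Fin 2) (ZMod p)) : Matrix (Fin 2) (Fin 2) (ZMod p)) ∈ L := by
    intro h hh
    have hh' : h ∈ Submonoid.closure S := by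
      rw [← Subgroup.closure_toSubmonoid_of_finite]
      exact hh
    induction hh' using Submonoid.closure_induction_right with
    | one => rw [Units.val_one, ofMat_one]; exact List.mem_of_getElem? h0
    | mul_right x hx y hy ih =>
      rw [Units.val_mul, ofMat_mul]
      refine hclosed _ (ih ?_) _ (hS y hy)
      rw [← Subgroup.mem_toSubmonoid, Subgroup.closure_toSubmonoid_of_finite]
      exact hx
  refine ⟨?_, hmem⟩
  have hall : ∀ i, i < L.length → ∃ h ∈ Subgroup.closure S,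
      ofMat ((h : Matrix.GeneralLinearGroup (Fin 2) (ZMod p)) : Matrix (Fin 2) (Fin 2) (ZMod p)) = L.getD i qone := by
    intro i
    induction i using Nat.strong_induction_on with
    | _ i ih =>
      intro hi
      rcases hpar i (List.mem_range.mpr hi) with rfl | ⟨h1, h2, h3⟩
      · exact ⟨1, one_mem _, by rw [Units.val_one, ofMat_one, List.getD_eq_getElem?_getD, h0]; rfl⟩
      · obtain ⟨u, hu, hue⟩ := ih _ h1 (h1.trans hi)
        obtain ⟨x, hx, hxe⟩ := hg (g.getD (par.getD i (0, 0)).2 qone) (by rw [List.getD_eq_getElem _ _ h2]; exact List.getElem_mem h2)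
        exact ⟨u * x, mul_mem hu (Subgroup.subset_closure hx), by rw [Units.val_mul, ofMat_mul, hue, hxe, h3]⟩
  rw [← List.toFinset_card_of_nodup hnd, ← Nat.card_eq_finsetCard]
  refine Nat.card_congr (Equiv.ofBijective
    (fun h : Subgroup.closure S => (⟨_, List.mem_toFinset.mpr (hmem h h.2)⟩ : L.toFinset)) ⟨?_, ?_⟩)
  · intro a b e
    exact Subtype.ext (Units.ext (ofMat_injective (congrArg Subtype.val e)))
  · rintro ⟨q, hq⟩
    obtain ⟨i, hi, rfl⟩ := List.getElem_of_mem (List.mem_toFinset.mp hq)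
    obtain ⟨h, hh, he⟩ := hall i hi
    exact ⟨⟨h, hh⟩, Subtype.ext (he.trans (List.getD_eq_getElem _ _ hi))⟩

/-- A semiregular group of order `p² - 1` is regular. -/
theorem regular_of_card (H : Subgroup (Matrix.GeneralLinearGroup (Fin 2) (ZMod p))) (hcard : Nat.card H = p * p - 1)
    (hfix : ∀ h ∈ H, qfix (ofMat ((h : Matrix.GeneralLinearGroup (Fin 2) (ZMod p)) : Matrix (Fin 2) (Fin 2) (ZMod p))) = 0 → h = 1) :
    ∀ v w : Fin 2 → ZMod p, v ≠ 0 → w ≠ 0 → ∃! h : H,
      Matrix.mulVec ((h : Matrix.GeneralLinearGroup (Fin 2) (ZMod p)) : Matrix (Fin 2) (Fin 2) (ZMod p)) v = w := by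
  classical
  intro v w hv hw
  let M : H → Matrix (Fin 2) (Fin 2) (ZMod p) := fun h => (h : Matrix.GeneralLinearGroup (Fin 2) (ZMod p))
  have hM : ∀ a b : H, M (a * b) = M a * M b := fun a b => rfl
  have hne : ∀ h : H, M h *ᵥ v ≠ 0 := fun h e => hv (by
    have := congrArg (M h⁻¹ *ᵥ ·) e
    simp only [Matrix.mulVec_mulVec, ← hM, inv_mul_cancel, Matrix.mulVec_zero] at this
    simpa [M] using this)
  let F : H → {u : Fin 2 → ZMod p // u ≠ 0} := fun h => ⟨M h *ᵥ v, hne h⟩
  have hinj : Function.Injective F := by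
    intro a b e
    have e' : M a *ᵥ v = M b *ᵥ v := congrArg Subtype.val e
    have h1 : (M (b⁻¹ * a) - 1) *ᵥ v = 0 := by
      rw [Matrix.sub_mulVec, Matrix.one_mulVec, hM, ← Matrix.mulVec_mulVec, e', Matrix.mulVec_mulVec, ← hM,
        inv_mul_cancel]
      simp [M]
    have h2 : (M (b⁻¹ * a) - 1).det = 0 := Matrix.exists_mulVec_eq_zero_iff.mp ⟨v, hv, h1⟩
    have h3 := hfix _ (b⁻¹ * a).2 (by rw [qfix_eq]; exact h2)
    exact (inv_mul_eq_one.mp (Subtype.ext h3 : b⁻¹ * a = 1)).symm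
  have hbij : Function.Bijective F := by
    refine (Nat.bijective_iff_injective_and_card _).mpr ⟨hinj, ?_⟩
    rw [hcard, Nat.card_eq_fintype_card, Fintype.card_subtype_compl, Fintype.card_subtype_eq, Fintype.card_fun,
      ZMod.card, Fintype.card_fin, pow_two]
  obtain ⟨h, hh⟩ := hbij.2 ⟨w, hw⟩
  exact ⟨h, congrArg Subtype.val hh, fun h' hh' => hinj (Subtype.ext (hh'.trans (congrArg Subtype.val hh).symm))⟩

end CfsgLib.RegularLinear.Examples
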